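import Cfsg.Agent.L.Sz.Syl

/-! Transport of the doubly transitive action of a Suzuki group. -/

set_option autoImplicit false

namespace CfsgL.Sz

open Subgroup

variable {F : Type*} [Field F] [Fintype F] {m : ℕ} [CharP F 2] [hF : Fact (Fintype.card F = 2 ^ (2 * m + 1))]

section
variable [hm : Fact (1 ≤ m)]

theorem transport {G : Type*} [Group G] [Finite G] (e : Gz F m ≃* G) :
    ∃ S : Sylow 2 G,
      Nat.card (normalizer ((S : Subgroup G) : Set G)) = Nat.card F ^ 2 * (Nat.card F - 1) ∧
      (normalizer ((S : Subgroup G) : Set G)).index = Nat.card F ^ 2 + 1 ∧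
      MulAction.IsMultiplyPretransitive G (G ⧸ normalizer ((S : Subgroup G) : Set G)) 2 ∧
      ∀ x y : G ⧸ normalizer ((S : Subgroup G) : Set G),
        x ≠ (QuotientGroup.mk 1) → y ≠ (QuotientGroup.mk 1) →
          ∃! s : ↥(S : Subgroup G), (s : G) • x = y := by
  have hcard : Nat.card ((QQ F m).map e.toMonoidHom) = Nat.card F ^ 2 := by
    rw [← card_QQ (F := F) (m := m)]
    exact (Nat.card_congr ((QQ F m).equivMapOfInjective e.toMonoidHom e.injective).toEquiv).symm
  have hGcard : Nat.card G = Nat.card (Gz F m) := (Nat.card_congr e.toEquiv).symm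
  have hindex : ((QQ F m).map e.toMonoidHom).index = (QQ F m).index := by
    have h1 := index_mul_card ((QQ F m).map e.toMonoidHom)
    have h2 := index_mul_card (QQ F m)
    rw [hcard, hGcard, ← h2, card_QQ] at h1
    exact Nat.eq_of_mul_eq_mul_right (pow_pos Nat.card_pos 2) h1
  have hP : IsPGroup 2 ((QQ F m).map e.toMonoidHom) := isPGroup_QQ.map _
  let S : Sylow 2 G := hP.toSylow (by rw [hindex]; exact not_two_dvd_index)
  have hScoe : (S : Subgroup G) = (QQ F m).map e.toMonoidHom := rfl
  have hmemS : ∀ g : G, g ∈ (S : Subgroup G) ↔ e.symm g ∈ QQ F m := by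
    intro g
    rw [hScoe]
    constructor
    · rintro ⟨k, hk, rfl⟩
      change e.symm (e k) ∈ QQ F m
      rw [e.symm_apply_apply]; exact hk
    · intro h
      exact ⟨_, h, e.apply_symm_apply g⟩
  have hN : normalizer ((S : Subgroup G) : Set G) = (BB F m).map e.toMonoidHom := by
    ext g
    rw [mem_nrm]
    constructor
    · intro h
      refine ⟨e.symm g, ?_, e.apply_symm_apply g⟩
      rw [SetLike.mem_coe, ← norm_QQ, mem_nrm]
      intro t
      have h1 := h (e t)
      rw [hmemS, hmemS, map_mul, map_mul, map_inv, e.symm_apply_apply] at h1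
      exact h1
    · rintro ⟨k, hk, rfl⟩
      intro t
      rw [SetLike.mem_coe, ← norm_QQ, mem_nrm] at hk
      rw [hmemS, hmemS, map_mul, map_mul, map_inv]
      change _ ↔ e.symm (e k) * e.symm t * (e.symm (e k))⁻¹ ∈ QQ F m
      rw [e.symm_apply_apply]
      exact hk _
  refine ⟨S, ?_⟩
  rw [hN]
  let f : G ⧸ ((BB F m).map e.toMonoidHom) → Om F m := Quotient.lift (fun g => e.symm g • pinf F m) (by
    intro a b hab
    have h1 : a⁻¹ * b ∈ (BB F m).map e.toMonoidHom := QuotientGroup.leftRel_apply.1 hab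
    obtain ⟨k, hk, hk'⟩ := h1
    have h2 : b = a * e k := by
      have : (e.toMonoidHom k : G) = e k := rfl
      rw [← this, hk']; group
    change e.symm a • pinf F m = e.symm b • pinf F m
    rw [h2, map_mul, e.symm_apply_apply, mul_smul, mem_BB.1 hk])
  have hf : ∀ g : G, f (QuotientGroup.mk g) = e.symm g • pinf F m := fun g => rfl
  have hfinj : Function.Injective f := by
    intro a b
    refine Quotient.inductionOn₂ a b (fun x y h => ?_)
    have h1 : e.symm x • pinf F m = e.symm y • pinf F m := h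
    apply Quotient.sound
    apply QuotientGroup.leftRel_apply.2
    refine ⟨e.symm (x⁻¹ * y), ?_, e.apply_symm_apply _⟩
    rw [SetLike.mem_coe, mem_BB, map_mul, mul_smul, ← h1, map_inv, inv_smul_smul]
  have hfeq : ∀ (g : G) (a : G ⧸ ((BB F m).map e.toMonoidHom)), f (g • a) = e.symm g • f a := by
    intro g a
    refine Quotient.inductionOn a (fun x => ?_)
    change e.symm (g * x) • pinf F m = e.symm g • e.symm x • pinf F m
    rw [map_mul, mul_smul]
  refine ⟨?_, ?_, ?_, ?_⟩
  · rw [← card_BB (F := F) (m := m)]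
    exact (Nat.card_congr ((BB F m).equivMapOfInjective e.toMonoidHom e.injective).toEquiv).symm
  · have h1 := index_mul_card ((BB F m).map e.toMonoidHom)
    have h2 := index_mul_card (BB F m)
    have h3 : Nat.card ((BB F m).map e.toMonoidHom) = Nat.card (BB F m) :=
      (Nat.card_congr ((BB F m).equivMapOfInjective e.toMonoidHom e.injective).toEquiv).symm
    rw [h3, hGcard, ← h2] at h1
    rw [Nat.eq_of_mul_eq_mul_right Nat.card_pos h1, index_BB]
  · rw [MulAction.is_two_pretransitive_iff]
    intro a b c d hab hcd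
    have h1 := (MulAction.is_two_pretransitive_iff.1 (isTwoTrans (F := F) (m := m)))
      (fun h => hab (hfinj h)) (fun h => hcd (hfinj h))
    obtain ⟨g, hg1, hg2⟩ := h1
    refine ⟨e g, hfinj ?_, hfinj ?_⟩
    · rw [hfeq, e.symm_apply_apply, hg1]
    · rw [hfeq, e.symm_apply_apply, hg2]
  · intro x y hx hy
    have hf1 : f (QuotientGroup.mk 1) = pinf F m := by rw [hf, map_one, one_smul]
    have hx' : f x ≠ pinf F m := fun h => hx (hfinj (h.trans hf1.symm))
    have hy' : f y ≠ pinf F m := fun h => hy (hfinj (h.trans hf1.symm))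
    obtain ⟨a, b, hab⟩ := exists_pp hx'
    obtain ⟨c, d, hcd⟩ := exists_pp hy'
    obtain ⟨v, hv⟩ : ∃ v, v = u m c d * (u m a b)⁻¹ := ⟨_, rfl⟩
    have hvQ : v ∈ QQ F m := by rw [hv]; exact mul_mem (u_mem_QQ _ _) (inv_mem (u_mem_QQ _ _))
    refine ⟨⟨e v, (hmemS _).2 (by rw [e.symm_apply_apply]; exact hvQ)⟩, ?_, ?_⟩
    · apply hfinj
      rw [hfeq, e.symm_apply_apply, hab, hcd, hv, mul_smul, ← u_smul_zero a b, inv_smul_smul, u_smul_zero]
    · rintro ⟨s, hs⟩ hsxy
      have h1 : e.symm s • f x = f y := by rw [← hfeq]; exact congrArg f hsxy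
      have hsQ := (hmemS s).1 hs
      have h2 : v⁻¹ * e.symm s ∈ QQ F m := mul_mem (inv_mem hvQ) hsQ
      have h3 : (v⁻¹ * e.symm s) • f x = f x := by
        rw [mul_smul, h1, inv_smul_eq_iff, hcd, hab, hv, mul_smul, ← u_smul_zero a b, inv_smul_smul, u_smul_zero]
      obtain ⟨a', b', hab'⟩ := h2
      have h4 : v⁻¹ * e.symm s = 1 := by
        by_contra h5
        rw [hab'] at h3 h5
        exact hx' (u_conj_fix h5 h3)
      apply Subtype.ext
      change s = e v
      rw [inv_mul_eq_one.1 h4, e.apply_symm_apply]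

end

end CfsgL.Sz
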